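import Mathlib
import Cfsg.Agent.Lib.Helper43.OMinusBal.Defs

/-!
# S2733, package P-GB2: graph involutions of the second kind

`g * g = c` a non-square and `g` a similarity of multiplier `c`: the space `ι → F` becomes a
vector space over `F(√c) = QuadraticAlgebra F c 0` (with `√c` acting as `g`), carrying the
`F(√c)`-bilinear form `BE x y = (B x y, c⁻¹ B (g x) y)`. A set `S` of semisimilarities as in
`SData` acts on it by semilinear similarities normalized by the Siegel maps, so by Lemma W its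
elements are `F(√c)`-scalars, i.e. of the form `p + q g`; being similarities of `Q`, they are
scalars or scalar multiples of `g`.
-/

set_option autoImplicit false

namespace Cfsg.Agent.Lib.Helper64.OMinusBal

open Cfsg.Agent.Lib.Helper14 Cfsg.Agent.Lib.Helper43.OMinusBal Matrix

universe u

section ve

variable {F : Type u} [Field F] {ι : Type} [Fintype ι] [DecidableEq ι]

/-- `ι → F` as a module over `F(√c)`, with `√c` acting as `g`. -/
def VE (g : Matrix ι ι F) (c : F) (_h : g * g = c • (1 : Matrix ι ι F)) : Type u := ι → F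

variable {g : Matrix ι ι F} {c : F} {h : g * g = c • (1 : Matrix ι ι F)}

/-- The underlying vector. -/
def VE.toV (x : VE g c h) : ι → F := x

/-- A vector as an element of the `F(√c)`-module. -/
def VE.ofV (x : ι → F) : VE g c h := x

instance VE.instAddCommGroup : AddCommGroup (VE g c h) := inferInstanceAs (AddCommGroup (ι → F))

instance VE.instModuleF : Module F (VE g c h) := inferInstanceAs (Module F (ι → F))

instance VE.instFinite [Finite F] : Finite (VE g c h) := inferInstanceAs (Finite (ι → F))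

theorem gg_mulVec (h : g * g = c • (1 : Matrix ι ι F)) (x : ι → F) : g *ᵥ (g *ᵥ x) = c • x := by
  rw [mulVec_mulVec, h, smul_mulVec, one_mulVec]

instance VE.instModuleE : Module (QuadraticAlgebra F c 0) (VE g c h) where
  smul ε x := (ε.re • x.toV + ε.im • (g *ᵥ x.toV) : ι → F)
  one_smul x := by
    show ((1 : QuadraticAlgebra F c 0).re • x.toV +
      (1 : QuadraticAlgebra F c 0).im • (g *ᵥ x.toV) : ι → F) = x.toV
    rw [QuadraticAlgebra.re_one, QuadraticAlgebra.im_one, one_smul, zero_smul, add_zero]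
  mul_smul a b x := by
    show ((a * b).re • x.toV + (a * b).im • (g *ᵥ x.toV) : ι → F) =
      a.re • (b.re • x.toV + b.im • (g *ᵥ x.toV)) +
        a.im • (g *ᵥ (b.re • x.toV + b.im • (g *ᵥ x.toV)))
    rw [QuadraticAlgebra.re_mul, QuadraticAlgebra.im_mul, mulVec_add, mulVec_smul, mulVec_smul,
      gg_mulVec h]
    module
  smul_zero a := by
    show (a.re • (0 : ι → F) + a.im • (g *ᵥ (0 : ι → F)) : ι → F) = 0
    rw [mulVec_zero, smul_zero, smul_zero, add_zero]
  smul_add a x y := by
    show (a.re • (x.toV + y.toV) + a.im • (g *ᵥ (x.toV + y.toV)) : ι → F) =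
      (a.re • x.toV + a.im • (g *ᵥ x.toV)) + (a.re • y.toV + a.im • (g *ᵥ y.toV))
    rw [mulVec_add]
    module
  add_smul a b x := by
    show ((a + b).re • x.toV + (a + b).im • (g *ᵥ x.toV) : ι → F) =
      (a.re • x.toV + a.im • (g *ᵥ x.toV)) + (b.re • x.toV + b.im • (g *ᵥ x.toV))
    rw [QuadraticAlgebra.re_add, QuadraticAlgebra.im_add]
    module
  zero_smul x := by
    show ((0 : QuadraticAlgebra F c 0).re • x.toV +
      (0 : QuadraticAlgebra F c 0).im • (g *ᵥ x.toV) : ι → F) = 0
    rw [QuadraticAlgebra.re_zero, QuadraticAlgebra.im_zero, zero_smul, zero_smul, add_zero]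

theorem VE.smul_def (ε : QuadraticAlgebra F c 0) (x : VE g c h) :
    (ε • x).toV = ε.re • x.toV + ε.im • (g *ᵥ x.toV) := rfl

instance VE.instIsScalarTower : IsScalarTower F (QuadraticAlgebra F c 0) (VE g c h) where
  smul_assoc a ε x := by
    show ((a • ε).re • x.toV + (a • ε).im • (g *ᵥ x.toV) : ι → F) =
      a • (ε.re • x.toV + ε.im • (g *ᵥ x.toV))
    rw [QuadraticAlgebra.re_smul, QuadraticAlgebra.im_smul, smul_eq_mul, smul_eq_mul]
    module


theorem VE.toV_add (x y : VE g c h) : (x + y).toV = x.toV + y.toV := rfl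

theorem VE.toV_neg (x : VE g c h) : (-x).toV = -x.toV := rfl

theorem VE.toV_sub (x y : VE g c h) : (x - y).toV = x.toV - y.toV := rfl

theorem VE.toV_zero : (0 : VE g c h).toV = 0 := rfl

theorem VE.toV_injective : Function.Injective (VE.toV : VE g c h → ι → F) := fun _ _ hxy => hxy

theorem VE.C_smul (a : F) (x : VE g c h) :
    ((QuadraticAlgebra.C a : QuadraticAlgebra F c 0) • x).toV = a • x.toV := by
  rw [VE.smul_def, QuadraticAlgebra.re_C, QuadraticAlgebra.im_C, zero_smul, add_zero]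

theorem VE.omega_smul (x : VE g c h) :
    ((QuadraticAlgebra.omega : QuadraticAlgebra F c 0) • x).toV = g *ᵥ x.toV := by
  rw [VE.smul_def, QuadraticAlgebra.omega_re, QuadraticAlgebra.omega_im, zero_smul, zero_add,
    one_smul]

variable (Q : QuadraticForm F (ι → F))

theorem polar_g (hgQ : ∀ v, Q (g *ᵥ v) = c * Q v) (x y : ι → F) :
    QuadraticMap.polar Q (g *ᵥ x) (g *ᵥ y) = c * QuadraticMap.polar Q x y := by
  unfold QuadraticMap.polar
  rw [← mulVec_add, hgQ, hgQ, hgQ]
  ring

theorem polar_g_swap (h : g * g = c • (1 : Matrix ι ι F)) (hc0 : c ≠ 0)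
    (hgQ : ∀ v, Q (g *ᵥ v) = c * Q v) (x y : ι → F) :
    QuadraticMap.polar Q (g *ᵥ x) y = QuadraticMap.polar Q x (g *ᵥ y) := by
  have h1 := polar_g Q hgQ x (g *ᵥ y)
  rw [gg_mulVec h, QuadraticMap.polar_smul_right, smul_eq_mul] at h1
  exact mul_left_cancel₀ hc0 h1

/-- The `F(√c)`-bilinear form refining the polar form of `Q`. -/
noncomputable def BE (h : g * g = c • (1 : Matrix ι ι F)) (hc0 : c ≠ 0)
    (hgQ : ∀ v, Q (g *ᵥ v) = c * Q v) : LinearMap.BilinForm (QuadraticAlgebra F c 0) (VE g c h) :=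
  LinearMap.mk₂ (QuadraticAlgebra F c 0)
    (fun x y => ⟨QuadraticMap.polar Q x.toV y.toV,
      c⁻¹ * QuadraticMap.polar Q (g *ᵥ x.toV) y.toV⟩)
    (fun x₁ x₂ y => by
      ext
      · show QuadraticMap.polar Q (x₁.toV + x₂.toV) y.toV = _
        rw [QuadraticMap.polar_add_left]
        rfl
      · show c⁻¹ * QuadraticMap.polar Q (g *ᵥ (x₁.toV + x₂.toV)) y.toV = _
        rw [mulVec_add, QuadraticMap.polar_add_left, mul_add]
        rfl)
    (fun ε x y => by
      ext
      · show QuadraticMap.polar Q (ε.re • x.toV + ε.im • (g *ᵥ x.toV)) y.toV =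
          ε.re * QuadraticMap.polar Q x.toV y.toV +
            c * ε.im * (c⁻¹ * QuadraticMap.polar Q (g *ᵥ x.toV) y.toV)
        rw [QuadraticMap.polar_add_left, QuadraticMap.polar_smul_left,
          QuadraticMap.polar_smul_left, smul_eq_mul, smul_eq_mul]
        field_simp
      · show c⁻¹ * QuadraticMap.polar Q (g *ᵥ (ε.re • x.toV + ε.im • (g *ᵥ x.toV))) y.toV =
          ε.re * (c⁻¹ * QuadraticMap.polar Q (g *ᵥ x.toV) y.toV) +
            ε.im * QuadraticMap.polar Q x.toV y.toV +
            0 * ε.im * (c⁻¹ * QuadraticMap.polar Q (g *ᵥ x.toV) y.toV)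
        rw [mulVec_add, mulVec_smul, mulVec_smul, gg_mulVec h, QuadraticMap.polar_add_left,
          QuadraticMap.polar_smul_left, QuadraticMap.polar_smul_left,
          QuadraticMap.polar_smul_left, smul_eq_mul, smul_eq_mul, smul_eq_mul]
        field_simp
        ring)
    (fun x y₁ y₂ => by
      ext
      · show QuadraticMap.polar Q x.toV (y₁.toV + y₂.toV) = _
        rw [QuadraticMap.polar_add_right]
        rfl
      · show c⁻¹ * QuadraticMap.polar Q (g *ᵥ x.toV) (y₁.toV + y₂.toV) = _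
        rw [QuadraticMap.polar_add_right, mul_add]
        rfl)
    (fun ε x y => by
      ext
      · show QuadraticMap.polar Q x.toV (ε.re • y.toV + ε.im • (g *ᵥ y.toV)) =
          ε.re * QuadraticMap.polar Q x.toV y.toV +
            c * ε.im * (c⁻¹ * QuadraticMap.polar Q (g *ᵥ x.toV) y.toV)
        rw [QuadraticMap.polar_add_right, QuadraticMap.polar_smul_right,
          QuadraticMap.polar_smul_right, smul_eq_mul, smul_eq_mul,
          ← polar_g_swap Q h hc0 hgQ]
        field_simp
      · show c⁻¹ * QuadraticMap.polar Q (g *ᵥ x.toV) (ε.re • y.toV + ε.im • (g *ᵥ y.toV)) =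
          ε.re * (c⁻¹ * QuadraticMap.polar Q (g *ᵥ x.toV) y.toV) +
            ε.im * QuadraticMap.polar Q x.toV y.toV +
            0 * ε.im * (c⁻¹ * QuadraticMap.polar Q (g *ᵥ x.toV) y.toV)
        rw [QuadraticMap.polar_add_right, QuadraticMap.polar_smul_right,
          QuadraticMap.polar_smul_right, smul_eq_mul, smul_eq_mul, polar_g Q hgQ]
        field_simp
        ring)

theorem BE_re (h : g * g = c • (1 : Matrix ι ι F)) (hc0 : c ≠ 0)
    (hgQ : ∀ v, Q (g *ᵥ v) = c * Q v) (x y : VE g c h) :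
    (BE Q h hc0 hgQ x y).re = QuadraticMap.polar Q x.toV y.toV := rfl

theorem BE_im (h : g * g = c • (1 : Matrix ι ι F)) (hc0 : c ≠ 0)
    (hgQ : ∀ v, Q (g *ᵥ v) = c * Q v) (x y : VE g c h) :
    (BE Q h hc0 hgQ x y).im = c⁻¹ * QuadraticMap.polar Q (g *ᵥ x.toV) y.toV := rfl

theorem BE_symm (h : g * g = c • (1 : Matrix ι ι F)) (hc0 : c ≠ 0)
    (hgQ : ∀ v, Q (g *ᵥ v) = c * Q v) (x y : VE g c h) :
    BE Q h hc0 hgQ x y = BE Q h hc0 hgQ y x := by
  ext
  · rw [BE_re, BE_re, QuadraticMap.polar_comm]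
  · rw [BE_im, BE_im, polar_g_swap Q h hc0 hgQ, QuadraticMap.polar_comm]

theorem BE_nondeg (h : g * g = c • (1 : Matrix ι ι F)) (hc0 : c ≠ 0)
    (hgQ : ∀ v, Q (g *ᵥ v) = c * Q v) (hQ : (QuadraticMap.polarBilin Q).Nondegenerate)
    (x : VE g c h) (hx : ∀ y, BE Q h hc0 hgQ x y = 0) : x = 0 := by
  apply VE.toV_injective
  apply hQ.1
  intro y
  have h1 : QuadraticMap.polar Q x.toV y = 0 := congrArg QuadraticAlgebra.re (hx y)
  rw [QuadraticMap.polarBilin_apply_apply]
  exact h1


theorem VE.C_smul' (a : F) (x : VE g c h) :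
    (QuadraticAlgebra.C a : QuadraticAlgebra F c 0) • x = a • x :=
  VE.C_smul a x

theorem VE.omega_smul_ofV (x : ι → F) :
    (QuadraticAlgebra.omega : QuadraticAlgebra F c 0) • (VE.ofV x : VE g c h) =
      VE.ofV (g *ᵥ x) :=
  VE.omega_smul (VE.ofV x)

theorem fact_of_not_isSquare (hc : ¬ IsSquare c) : Fact (∀ r : F, r ^ 2 ≠ c + 0 * r) :=
  ⟨fun r hr => hc ⟨r, by rw [zero_mul, add_zero] at hr; rw [← hr, sq]⟩⟩

theorem ne_zero_of_not_isSquare (hc : ¬ IsSquare c) : c ≠ 0 := by
  rintro rfl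
  exact hc ⟨0, (mul_zero 0).symm⟩

section field

variable [Fact (∀ r : F, r ^ 2 ≠ c + 0 * r)]

theorem finrank_VE (h : g * g = c • (1 : Matrix ι ι F)) :
    2 * Module.finrank (QuadraticAlgebra F c 0) (VE g c h) = Fintype.card ι := by
  have h1 := Module.finrank_mul_finrank F (QuadraticAlgebra F c 0) (VE g c h)
  rw [QuadraticAlgebra.finrank_eq_two] at h1
  rw [h1]
  exact Module.finrank_fintype_fun_eq_card F

theorem siegel_smulF (B : LinearMap.BilinForm (QuadraticAlgebra F c 0) (VE g c h))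
    (u w x : VE g c h) (a : F) : siegel B u w (a • x) = a • siegel B u w x := by
  rw [← VE.C_smul' a x, siegel_smul, VE.C_smul']

/-- A Siegel map of the `F(√c)`-form as an `F`-linear map. -/
noncomputable def siegelLin (B : LinearMap.BilinForm (QuadraticAlgebra F c 0) (VE g c h))
    (u w : VE g c h) : (ι → F) →ₗ[F] (ι → F) where
  toFun x := (siegel B u w (VE.ofV x)).toV
  map_add' x y := siegel_add B u w (VE.ofV x) (VE.ofV y)
  map_smul' a x := siegel_smulF B u w (VE.ofV x) a

theorem siegelLin_apply (B : LinearMap.BilinForm (QuadraticAlgebra F c 0) (VE g c h))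
    (u w : VE g c h) (x : ι → F) : siegelLin B u w x = (siegel B u w (VE.ofV x)).toV := rfl

theorem two_ne_zero_E (h2 : (2 : F) ≠ 0) : (2 : QuadraticAlgebra F c 0) ≠ 0 := by
  intro h0
  apply h2
  have := congrArg QuadraticAlgebra.re h0
  rwa [QuadraticAlgebra.re_ofNat] at this

/-- The matrix of a Siegel map, with its properties. -/
theorem exists_gl_siegel (h : g * g = c • (1 : Matrix ι ι F)) (hc0 : c ≠ 0)
    (hgQ : ∀ v, Q (g *ᵥ v) = c * Q v) (r : ℕ) [CharP F r] (h2 : (2 : F) ≠ 0)
    (u w : VE g c h) (hu : BE Q h hc0 hgQ u u = 0) (huw : BE Q h hc0 hgQ u w = 0) :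
    ∃ e : GL ι F, (∀ x : ι → F, (e : Matrix ι ι F) *ᵥ x =
        (siegel (BE Q h hc0 hgQ) u w (VE.ofV x)).toV) ∧
      (∀ v, Q ((e : Matrix ι ι F) *ᵥ v) = Q v) ∧
      (e : Matrix ι ι F) * g = g * (e : Matrix ι ι F) ∧ e ^ r = 1 := by
  have h2E : (2 : QuadraticAlgebra F c 0) ≠ 0 := two_ne_zero_E h2
  have hsym := BE_symm Q h hc0 hgQ
  have hcharE : CharP (QuadraticAlgebra F c 0) r :=
    charP_of_injective_algebraMap (algebraMap F (QuadraticAlgebra F c 0)).injective r
  set B := BE Q h hc0 hgQ with hB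
  have hc1 : siegelLin B u w ∘ₗ siegelLin B u (-w) = LinearMap.id := by
    apply LinearMap.ext
    intro x
    exact siegel_neg_cancel B hsym h2E hu huw (VE.ofV x)
  have hc2 : siegelLin B u (-w) ∘ₗ siegelLin B u w = LinearMap.id := by
    apply LinearMap.ext
    intro x
    exact siegel_neg_cancel' B hsym h2E hu huw (VE.ofV x)
  let e : GL ι F := ⟨LinearMap.toMatrix' (siegelLin B u w), LinearMap.toMatrix' (siegelLin B u (-w)),
    by rw [← LinearMap.toMatrix'_comp, hc1, LinearMap.toMatrix'_id],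
    by rw [← LinearMap.toMatrix'_comp, hc2, LinearMap.toMatrix'_id]⟩
  have he : ∀ x : ι → F, (e : Matrix ι ι F) *ᵥ x = (siegel B u w (VE.ofV x)).toV := by
    intro x
    show LinearMap.toMatrix' (siegelLin B u w) *ᵥ x = _
    rw [← Matrix.toLin'_apply, Matrix.toLin'_toMatrix']
    rfl
  refine ⟨e, he, ?_, ?_, ?_⟩
  · intro v
    have h1 := siegel_form B hsym h2E hu huw (VE.ofV v) (VE.ofV v)
    have h3 : QuadraticMap.polar Q ((e : Matrix ι ι F) *ᵥ v) ((e : Matrix ι ι F) *ᵥ v) =
        QuadraticMap.polar Q v v := by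
      rw [he]
      exact congrArg QuadraticAlgebra.re h1
    rw [QuadraticMap.polar_self, QuadraticMap.polar_self, two_smul, two_smul, ← two_mul,
      ← two_mul] at h3
    exact mul_left_cancel₀ h2 h3
  · rw [Matrix.ext_iff_mulVec]
    intro x
    rw [← mulVec_mulVec, ← mulVec_mulVec, he, he]
    have h1 := congrArg VE.toV
      (siegel_smul B u w (QuadraticAlgebra.omega : QuadraticAlgebra F c 0) (VE.ofV x))
    rw [VE.omega_smul, VE.omega_smul_ofV] at h1
    exact h1
  · have hpow : ∀ (n : ℕ) (x : ι → F), ((e : Matrix ι ι F) ^ n) *ᵥ x =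
        ((siegel B u w)^[n] (VE.ofV x)).toV := by
      intro n
      induction n with
      | zero =>
        intro x
        rw [pow_zero, one_mulVec]
        rfl
      | succ n ih =>
        intro x
        rw [pow_succ, ← mulVec_mulVec, he, ih]
        rfl
    apply Units.ext
    rw [Units.val_pow_eq_pow_val, Units.val_one, Matrix.ext_iff_mulVec]
    intro x
    rw [hpow, one_mulVec]
    exact congrArg VE.toV (siegel_iterate_char B hsym h2E r hu huw (VE.ofV x))

end field


section semi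

theorem sact_zero (s : SemiGL ι F) : sact s 0 = 0 := by
  have h1 := sact_smul s 0 (0 : ι → F)
  rw [zero_smul, map_zero, zero_smul] at h1
  exact h1

theorem single_ne_zero (i : ι) : (Pi.single i 1 : ι → F) ≠ 0 := by
  intro h0
  have h1 := congrFun h0 i
  rw [Pi.single_eq_same, Pi.zero_apply] at h1
  exact one_ne_zero h1

theorem sact_single_ne_zero (s : SemiGL ι F) (i : ι) : sact s (Pi.single i 1) ≠ 0 := by
  intro h0
  rw [← sact_zero s] at h0
  exact single_ne_zero i (sact_injective s h0)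

theorem sact_iterate (s : SemiGL ι F) (n : ℕ) (x : ι → F) : (sact s)^[n] x = sact (s ^ n) x := by
  induction n with
  | zero => rw [Function.iterate_zero, id, pow_zero, sact_one]
  | succ n ih => rw [Function.iterate_succ_apply', ih, ← sact_mul, ← pow_succ']

theorem lam_sq (hne : Nonempty ι) (h : g * g = c • (1 : Matrix ι ι F)) (s : SemiGL ι F) (lam : F)
    (hlam : ∀ v, sact s (g *ᵥ v) = lam • (g *ᵥ sact s v)) : lam ^ 2 * c = s.right c := by
  obtain ⟨i⟩ := hne
  have h1 : sact s (g *ᵥ (g *ᵥ (Pi.single i 1))) = (lam ^ 2 * c) • sact s (Pi.single i 1) := by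
    rw [hlam, hlam, mulVec_smul, gg_mulVec h, smul_smul, smul_smul]
    congr 1
    ring
  have h2 : sact s (g *ᵥ (g *ᵥ (Pi.single i 1))) = s.right c • sact s (Pi.single i 1) := by
    rw [gg_mulVec h, sact_smul]
  have h4 : (lam ^ 2 * c - s.right c) • sact s (Pi.single i 1) = 0 := by
    rw [sub_smul, ← h1, ← h2, sub_self]
  rcases smul_eq_zero.1 h4 with h5 | h5
  · exact sub_eq_zero.1 h5
  · exact absurd h5 (sact_single_ne_zero s i)

/-- The automorphism of `F(√c)` extending `τ` with `√c ↦ lam √c`. -/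
noncomputable def sigmaE (τ : F ≃+* F) (lam : F) (hl : lam ^ 2 * c = τ c) (hl0 : lam ≠ 0) :
    QuadraticAlgebra F c 0 ≃+* QuadraticAlgebra F c 0 :=
  RingEquiv.ofBijective
    ({ toFun := fun z => ⟨τ z.re, lam * τ z.im⟩
       map_one' := by
         ext
         · show τ 1 = 1
           exact map_one τ
         · show lam * τ 0 = 0
           rw [map_zero, mul_zero]
       map_mul' := fun a b => by
         ext
         · show τ (a.re * b.re + c * a.im * b.im) =
             τ a.re * τ b.re + c * (lam * τ a.im) * (lam * τ b.im)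
           rw [map_add, map_mul, map_mul, map_mul, ← hl]
           ring
         · show lam * τ (a.re * b.im + a.im * b.re + 0 * a.im * b.im) =
             τ a.re * (lam * τ b.im) + lam * τ a.im * τ b.re + 0 * (lam * τ a.im) * (lam * τ b.im)
           rw [map_add, map_add, map_mul, map_mul, map_mul, map_mul, map_zero]
           ring
       map_zero' := by
         ext
         · show τ 0 = 0
           exact map_zero τ
         · show lam * τ 0 = 0
           rw [map_zero, mul_zero]
       map_add' := fun a b => by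
         ext
         · show τ (a.re + b.re) = τ a.re + τ b.re
           exact map_add τ _ _
         · show lam * τ (a.im + b.im) = lam * τ a.im + lam * τ b.im
           rw [map_add, mul_add] } : QuadraticAlgebra F c 0 →+* QuadraticAlgebra F c 0)
    ⟨fun a b hab => by
      have h1 : τ a.re = τ b.re := congrArg QuadraticAlgebra.re hab
      have h2 : lam * τ a.im = lam * τ b.im := congrArg QuadraticAlgebra.im hab
      ext
      · exact τ.injective h1
      · exact τ.injective (mul_left_cancel₀ hl0 h2),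
    fun b => ⟨⟨τ.symm b.re, τ.symm (lam⁻¹ * b.im)⟩, by
      ext
      · show τ (τ.symm b.re) = b.re
        exact τ.apply_symm_apply _
      · show lam * τ (τ.symm (lam⁻¹ * b.im)) = b.im
        rw [τ.apply_symm_apply, ← mul_assoc, mul_inv_cancel₀ hl0, one_mul]⟩⟩

theorem sigmaE_re (τ : F ≃+* F) (lam : F) (hl : lam ^ 2 * c = τ c) (hl0 : lam ≠ 0)
    (z : QuadraticAlgebra F c 0) : (sigmaE τ lam hl hl0 z).re = τ z.re := rfl

theorem sigmaE_im (τ : F ≃+* F) (lam : F) (hl : lam ^ 2 * c = τ c) (hl0 : lam ≠ 0)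
    (z : QuadraticAlgebra F c 0) : (sigmaE τ lam hl hl0 z).im = lam * τ z.im := rfl

theorem sact_smulE (s : SemiGL ι F) (lam : F) (hl : lam ^ 2 * c = s.right c) (hl0 : lam ≠ 0)
    (hlam : ∀ v, sact s (g *ᵥ v) = lam • (g *ᵥ sact s v)) (ε : QuadraticAlgebra F c 0)
    (x : VE g c h) :
    (VE.ofV (sact s (ε • x).toV) : VE g c h) =
      sigmaE s.right lam hl hl0 ε • (VE.ofV (sact s x.toV) : VE g c h) := by
  show sact s (ε.re • x.toV + ε.im • (g *ᵥ x.toV)) =
    s.right ε.re • sact s x.toV + (lam * s.right ε.im) • (g *ᵥ sact s x.toV)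
  rw [sact_add, sact_smul, sact_smul, hlam, smul_smul, mul_comm]

theorem polar_sact (s : SemiGL ι F) (m : F) (hm : ∀ v, Q (sact s v) = m * s.right (Q v))
    (x y : ι → F) :
    QuadraticMap.polar Q (sact s x) (sact s y) = m * s.right (QuadraticMap.polar Q x y) := by
  unfold QuadraticMap.polar
  rw [← sact_add, hm, hm, hm, map_sub, map_sub]
  ring

theorem BE_sact (h : g * g = c • (1 : Matrix ι ι F)) (hc0 : c ≠ 0)
    (hgQ : ∀ v, Q (g *ᵥ v) = c * Q v) (s : SemiGL ι F) (m : F)
    (hm : ∀ v, Q (sact s v) = m * s.right (Q v)) (lam : F) (hl : lam ^ 2 * c = s.right c)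
    (hl0 : lam ≠ 0) (hlam : ∀ v, sact s (g *ᵥ v) = lam • (g *ᵥ sact s v)) (x y : VE g c h) :
    BE Q h hc0 hgQ (sact s x) (sact s y) =
      QuadraticAlgebra.C m * sigmaE s.right lam hl hl0 (BE Q h hc0 hgQ x y) := by
  have hg : ∀ v : ι → F, g *ᵥ sact s v = lam⁻¹ • sact s (g *ᵥ v) := by
    intro v
    rw [hlam, smul_smul, inv_mul_cancel₀ hl0, one_smul]
  ext
  · show QuadraticMap.polar Q (sact s x.toV) (sact s y.toV) =
      m * s.right (QuadraticMap.polar Q x.toV y.toV) +
        c * 0 * (lam * s.right (c⁻¹ * QuadraticMap.polar Q (g *ᵥ x.toV) y.toV))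
    rw [polar_sact Q s m hm]
    ring
  · show c⁻¹ * QuadraticMap.polar Q (g *ᵥ sact s x.toV) (sact s y.toV) =
      m * (lam * s.right (c⁻¹ * QuadraticMap.polar Q (g *ᵥ x.toV) y.toV)) +
        0 * s.right (QuadraticMap.polar Q x.toV y.toV) +
        0 * 0 * (lam * s.right (c⁻¹ * QuadraticMap.polar Q (g *ᵥ x.toV) y.toV))
    have hτc : s.right c ≠ 0 := by
      rw [← hl]
      exact mul_ne_zero (pow_ne_zero 2 hl0) hc0
    rw [hg, QuadraticMap.polar_smul_left, smul_eq_mul, polar_sact Q s m hm, map_mul, map_inv₀,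
      ← hl]
    field_simp
    ring

end semi


section final

/-- An element of `S` acting as `p + q g` is a scalar or a scalar multiple of `g`. -/
theorem sconcl_of_smul (hne : Nonempty ι) (h : g * g = c • (1 : Matrix ι ι F))
    (hc : ¬ IsSquare c) (hgQ : ∀ v, Q (g *ᵥ v) = c * Q v)
    (hQ : (QuadraticMap.polarBilin Q).Nondegenerate) (h2 : (2 : F) ≠ 0) (s : SemiGL ι F) (m : F)
    (hm : ∀ v, Q (sact s v) = m * s.right (Q v)) (p q : F)
    (hpq : ∀ x : ι → F, sact s x = p • x + q • (g *ᵥ x)) : SConcl g s := by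
  have hc0 : c ≠ 0 := ne_zero_of_not_isSquare hc
  obtain ⟨i⟩ := hne
  have hx0 : (Pi.single i 1 : ι → F) ≠ 0 := single_ne_zero i
  have hs0 : sact s (Pi.single i 1) ≠ 0 := sact_single_ne_zero s i
  have hτ : s.right = 1 := by
    apply RingEquiv.ext
    intro a
    have h1 : sact s (a • Pi.single i 1) = s.right a • sact s (Pi.single i 1) := sact_smul s a _
    have h3 : sact s (a • Pi.single i 1) = a • sact s (Pi.single i 1) := by
      rw [hpq, hpq, mulVec_smul]
      module
    have h4 : (s.right a - a) • sact s (Pi.single i 1) = 0 := by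
      rw [sub_smul, ← h1, ← h3, sub_self]
    rcases smul_eq_zero.1 h4 with h5 | h5
    · exact sub_eq_zero.1 h5
    · exact absurd h5 hs0
  have hleft : ∀ x : ι → F, (s.left : Matrix ι ι F) *ᵥ x = p • x + q • (g *ᵥ x) := by
    intro x
    rw [← hpq]
    unfold sact
    rw [hτ]
    rfl
  refine ⟨hτ, ?_⟩
  by_cases hq : q = 0
  · left
    refine ⟨p, ?_⟩
    rw [Matrix.ext_iff_mulVec]
    intro x
    rw [hleft, hq, zero_smul, add_zero, smul_mulVec, one_mulVec]
  · right
    refine ⟨q, ?_⟩
    have hp : p = 0 := by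
      by_contra hp
      have hpol : ∀ x y : ι → F, 2 * p * q * QuadraticMap.polar Q (g *ᵥ x) y =
          (m - p ^ 2 - c * q ^ 2) * QuadraticMap.polar Q x y := by
        intro x y
        have h1 := polar_sact Q s m hm x y
        rw [hτ, hpq, hpq] at h1
        simp only [QuadraticMap.polar_add_left,
          QuadraticMap.polar_add_right, QuadraticMap.polar_smul_left,
          QuadraticMap.polar_smul_right, smul_eq_mul, RingAut.one_apply] at h1
        rw [polar_g Q hgQ x y, ← polar_g_swap Q h hc0 hgQ x y] at h1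
        linear_combination h1
      have hgκ : ∀ x : ι → F, g *ᵥ x = ((m - p ^ 2 - c * q ^ 2) / (2 * p * q)) • x := by
        intro x
        have h5 : g *ᵥ x - ((m - p ^ 2 - c * q ^ 2) / (2 * p * q)) • x = 0 := by
          apply hQ.1
          intro y
          rw [map_sub, map_smul, LinearMap.sub_apply, LinearMap.smul_apply, smul_eq_mul,
            QuadraticMap.polarBilin_apply_apply, QuadraticMap.polarBilin_apply_apply]
          have h6 := hpol x y
          field_simp
          linear_combination h6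
        exact sub_eq_zero.1 h5
      have h7 : c • (Pi.single i 1 : ι → F) =
          (((m - p ^ 2 - c * q ^ 2) / (2 * p * q)) * ((m - p ^ 2 - c * q ^ 2) / (2 * p * q))) •
            (Pi.single i 1 : ι → F) := by
        rw [← gg_mulVec h, hgκ, hgκ, smul_smul]
      have h8 : (c - ((m - p ^ 2 - c * q ^ 2) / (2 * p * q)) *
          ((m - p ^ 2 - c * q ^ 2) / (2 * p * q))) • (Pi.single i 1 : ι → F) = 0 := by
        rw [sub_smul, ← h7, sub_self]
      rcases smul_eq_zero.1 h8 with h9 | h9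
      · exact hc ⟨_, sub_eq_zero.1 h9⟩
      · exact hx0 h9
    rw [Matrix.ext_iff_mulVec]
    intro x
    rw [hleft, hp, zero_smul, zero_add, smul_mulVec]

end final

end ve

/-- Package P-GB2 of S2733: the second kind of graph involution (`g * g = c` a non-square). -/
theorem gb2 (hW : LemW.{u, u}) (hI : LemIso.{u, u}) : GB2.{u} := by
  intro F _ _ ι _ _ Q hQ r _ _ hr2 k hk hk3 hcard g c hc hgg hgQ S hS s₀ hs₀
  have hc0 : c ≠ 0 := ne_zero_of_not_isSquare hc
  have hfact : Fact (∀ r : F, r ^ 2 ≠ c + 0 * r) := fact_of_not_isSquare hc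
  have h2 : (2 : F) ≠ 0 := two_ne_zero_of_charP r hr2
  have hne : Nonempty ι := by
    rw [← Fintype.card_pos_iff, hcard]
    omega
  have hfinE : Finite (QuadraticAlgebra F c 0) :=
    Finite.of_equiv _ (QuadraticAlgebra.equivProd c 0).symm
  have hcharE : CharP (QuadraticAlgebra F c 0) r :=
    charP_of_injective_algebraMap (algebraMap F (QuadraticAlgebra F c 0)).injective r
  have h2E : (2 : QuadraticAlgebra F c 0) ≠ 0 := two_ne_zero_E h2
  have hsym := BE_symm Q hgg hc0 hgQ
  have hnd := BE_nondeg Q hgg hc0 hgQ hQ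
  have hfr : 2 * Module.finrank (QuadraticAlgebra F c 0) (VE g c hgg) = Fintype.card ι :=
    finrank_VE hgg
  have hdim : Module.finrank (QuadraticAlgebra F c 0) (VE g c hgg) = 3 ∨
      5 ≤ Module.finrank (QuadraticAlgebra F c 0) (VE g c hgg) := by
    obtain ⟨j, hj⟩ := hk
    omega
  have hiso := hI (BE Q hgg hc0 hgQ) h2E hsym hnd (by omega)
  have hM : MData (BE Q hgg hc0 hgQ)
      {ψ : VE g c hgg → VE g c hgg | ∃ s ∈ S, ψ = sact s} := by
    refine ⟨?_, ?_, ?_, ?_⟩
    · rintro ψ ⟨s, hs, rfl⟩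
      obtain ⟨m, hm⟩ := (mem_semiSim_iff _ s).1 (hS.semi s hs)
      obtain ⟨lam, hlam⟩ := hS.comm s hs
      have hl := lam_sq hne hgg s lam hlam
      have hl0 : lam ≠ 0 := by
        rintro rfl
        rw [zero_pow (by norm_num), zero_mul] at hl
        exact hc0 ((map_eq_zero s.right).1 hl.symm)
      refine ⟨sigmaE s.right lam hl hl0, QuadraticAlgebra.C (m : F), ?_, sact_add s, ?_, ?_⟩
      · intro h0
        exact m.ne_zero (QuadraticAlgebra.C_eq_zero_iff.1 h0)
      · intro ε x
        exact sact_smulE s lam hl hl0 hlam ε x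
      · intro x y
        exact BE_sact Q hgg hc0 hgQ s m hm lam hl hl0 hlam x y
    · rintro ψ ⟨s, hs, rfl⟩ ψ' ⟨s', hs', rfl⟩
      exact ⟨s * s', hS.mul s hs s' hs', funext fun x => (sact_mul s s' x).symm⟩
    · rintro ψ ⟨s, hs, rfl⟩
      exact ⟨sact s⁻¹, ⟨s⁻¹, hS.inv s hs, rfl⟩, funext fun x => sact_sact_inv s x,
        funext fun x => sact_inv_sact s x⟩
    · rintro ψ ⟨s, hs, rfl⟩ u w hu huw
      obtain ⟨e, he, heQ, heg, her⟩ := exists_gl_siegel Q hgg hc0 hgQ r h2 u w hu huw
      refine ⟨SemidirectProduct.inl e * s * (SemidirectProduct.inl e)⁻¹,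
        hS.conj s hs e heQ heg her, ?_⟩
      have hin : ∀ x : ι → F, sact (SemidirectProduct.inl e : SemiGL ι F) x =
          (siegel (BE Q hgg hc0 hgQ) u w (VE.ofV x)).toV := by
        intro x
        rw [← he]
        rfl
      funext x
      have h5 : sact (SemidirectProduct.inl e : SemiGL ι F)⁻¹ x.toV =
          (siegel (BE Q hgg hc0 hgQ) u (-w) x).toV := by
        have h6 := sact_inv_sact (SemidirectProduct.inl e : SemiGL ι F)
          (siegel (BE Q hgg hc0 hgQ) u (-w) x).toV
        have h7 : (siegel (BE Q hgg hc0 hgQ) u w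
            (VE.ofV (siegel (BE Q hgg hc0 hgQ) u (-w) x).toV)).toV = x.toV :=
          congrArg VE.toV (siegel_neg_cancel (BE Q hgg hc0 hgQ) hsym h2E hu huw x)
        rw [hin, h7] at h6
        exact h6
      show (siegel (BE Q hgg hc0 hgQ) u w
          (VE.ofV (sact s (siegel (BE Q hgg hc0 hgQ) u (-w) x).toV))).toV =
        sact (SemidirectProduct.inl e * s * (SemidirectProduct.inl e)⁻¹) x.toV
      rw [sact_mul, sact_mul, hin, h5]
  have hodd : ∀ ψ ∈ {ψ : VE g c hgg → VE g c hgg | ∃ s ∈ S, ψ = sact s},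
      ∃ (k : ℕ) (α : QuadraticAlgebra F c 0), Odd k ∧ ∀ x, ψ^[k] x = α • x := by
    rintro ψ ⟨s, hs, rfl⟩
    obtain ⟨n, lam, hn, hlam⟩ := hS.odd s hs
    refine ⟨n, QuadraticAlgebra.C lam, hn, fun x => ?_⟩
    rw [VE.C_smul']
    exact (sact_iterate s n x).trans (hlam x)
  obtain ⟨ε, hε⟩ := hW r hr2 (BE Q hgg hc0 hgQ) hsym hnd hdim hiso _ hM hodd (sact s₀)
    ⟨s₀, hs₀, rfl⟩
  obtain ⟨m, hm⟩ := (mem_semiSim_iff _ s₀).1 (hS.semi s₀ hs₀)
  exact sconcl_of_smul Q hne hgg hc hgQ hQ h2 s₀ m hm ε.re ε.im (fun x => hε x)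

end Cfsg.Agent.Lib.Helper64.OMinusBal
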